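import Cfsg.Agent.OD.Pre
import Cfsg.Agent.H6.Top2
import Cfsg.Agent.H6.F22A.C
set_option autoImplicit false
set_option maxRecDepth 100000
set_option Elab.async false
set_option linter.all false
namespace CfH6.F22A
open CfH6 MulAction
theorem e0_0 : EqsOk nets0 eqs0 4096 12 0 12 :=
  eqsOk_of _ _ _ _ 0 12 _ (by decide) (by decide +kernel)
theorem ok0 : okNets 4096 nets0 = true := by decide +kernel
theorem x1_0 : NxOk nets0 ws1 nets1 9 4096 12 4096 0 12 :=
  nxOk_of _ _ _ _ _ _ _ 0 12 _ (by decide) (by decide +kernel)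
theorem sx1 : sideNx ws1 nets1 9 4096 12 4096 = true := by decide +kernel
theorem x2_0 : NxOk nets1 ws2 nets2 7 4096 12 160 0 12 :=
  nxOk_of _ _ _ _ _ _ _ 0 12 _ (by decide) (by decide +kernel)
theorem sx2 : sideNx ws2 nets2 9 4096 12 160 = true := by decide +kernel
theorem x3_0 : NxOk nets2 ws3 nets3 5 160 8 96 0 8 :=
  nxOk_of _ _ _ _ _ _ _ 0 8 _ (by decide) (by decide +kernel)
theorem sx3 : sideNx ws3 nets3 7 160 8 96 = true := by decide +kernel
theorem x4_0 : NxOk nets3 ws4 nets4 4 96 7 20 0 7 :=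
  nxOk_of _ _ _ _ _ _ _ 0 7 _ (by decide) (by decide +kernel)
theorem sx4 : sideNx ws4 nets4 5 96 7 20 = true := by decide +kernel
theorem x5_0 : NxOk nets4 ws5 nets5 3 20 5 16 0 5 :=
  nxOk_of _ _ _ _ _ _ _ 0 5 _ (by decide) (by decide +kernel)
theorem sx5 : sideNx ws5 nets5 4 20 5 16 = true := by decide +kernel
theorem x6_0 : NxOk nets5 ws6 nets6 2 16 4 12 0 4 :=
  nxOk_of _ _ _ _ _ _ _ 0 4 _ (by decide) (by decide +kernel)
theorem sx6 : sideNx ws6 nets6 3 16 4 12 = true := by decide +kernel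
theorem oi1_0 : (Nat.blt 0 9 && Nat.beq (orbN nets1 9 63 (Nat.shiftLeft 1 1)) S1) = true := by decide +kernel
theorem ci1 : (Nat.beq (chkInv nets1 9 S1) 0 && S1.testBit 1) = true := by decide +kernel
theorem oi2_0 : (Nat.blt 0 9 && Nat.beq (orbN nets1 9 54 (Nat.shiftLeft 1 2975)) S2) = true := by decide +kernel
theorem ci2 : (Nat.beq (chkInv nets1 9 S2) 0 && S2.testBit 2975) = true := by decide +kernel
theorem cm2 : chkMx 4096 nets0 9 ws1 9 3510 w2 2975 J2 lBig = true := by decide +kernel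
theorem cm1 : chkMx 4096 nets0 9 ws1 9 3510 w1 1 J1 lBig = true := by decide +kernel
theorem og6 : Nat.ble 6 (popc 4 (orbN nets6 2 4 (Nat.shiftLeft 1 6))) = true := by decide +kernel
theorem og5 : Nat.ble 9 (popc 4 (orbN nets5 3 9 (Nat.shiftLeft 1 5))) = true := by decide +kernel
theorem og4 : Nat.ble 12 (popc 5 (orbN nets4 4 16 (Nat.shiftLeft 1 4))) = true := by decide +kernel
theorem og3 : Nat.ble 80 (popc 7 (orbN nets3 5 25 (Nat.shiftLeft 1 3))) = true := by decide +kernel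
theorem og2 : Nat.ble 126 (popc 8 (orbN nets2 7 28 (Nat.shiftLeft 1 2))) = true := by decide +kernel
theorem pw0 : (allLt 9 (wpow [5, 7, 1, 6, 3, 2, 8, 4] (13 ^ 1)) && bs'.all fun b => Nat.blt b 4096 && Nat.beq (chkMap nets0 (wpow [5, 7, 1, 6, 3, 2, 8, 4] (13 ^ 1)) b b) 0) = true := by decide +kernel
end CfH6.F22A
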